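import Mathlib
import Cfsg.Agent.Lib.MonRep.Wt

/-! Eigenspaces of elements normalising a group of symplectic type. -/

set_option autoImplicit false

namespace CfsgLib.ExtEig

open Module Module.End Polynomial
open scoped commutatorElement

variable {F V G : Type*} [Field F] [AddCommGroup V] [Module F V] [FiniteDimensional F V] [Group G] {ρ : G →* End F V}

omit [FiniteDimensional F V] in
theorem inj (a : G) : Function.Injective (ρ a) := (Representation.apply_bijective ρ a).1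

theorem sum_le (S : End F V) (X : Submodule F V) (s : Finset ℕ) {c : ℕ → F} (hc : Set.InjOn c s) (W : ℕ → Submodule F V)
    (t : ℕ → G) (h : ∀ i ∈ s, ∀ u ∈ W i, ρ (t i) u ∈ X ⊓ S.eigenspace (c i)) : ∑ i ∈ s, finrank F (W i) ≤ finrank F X := by
  have h1 : ∀ i : s, (W i).map (ρ (t i)) ≤ X ⊓ S.eigenspace (c i) := by
    rintro i _ ⟨u, hu, rfl⟩; exact h i i.2 u hu
  have h2 := MonRep.finrank_iSup ((S.eigenspaces_iSupIndep.comp (f := fun i : s => c i)
    fun i j e => Subtype.ext (hc i.2 j.2 e)).mono fun i => (h1 i).trans inf_le_right)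
  rw [← Finset.sum_coe_sort, Finset.sum_congr rfl fun (i : s) _ => ((W i).equivMapOfInjective _ (inj (t i))).finrank_eq,
    ← h2]
  exact Submodule.finrank_mono (iSup_le fun i => (h1 i).trans inf_le_left)

theorem le_sum (z : End F V) (μ : ℕ → F) (s : Finset ℕ) (W : Submodule F V) : (∀ u ∈ W, z u ∈ W) →
    (∀ u ∈ W, aeval z (∏ i ∈ s, (X - C (μ i))) u = 0) → finrank F W ≤ ∑ i ∈ s, finrank F ↥(W ⊓ z.eigenspace (μ i)) := by
  induction s using Finset.induction generalizing W with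
  | empty => intro _ h; simp [(Submodule.eq_bot_iff _).2 (by simpa using h : ∀ u ∈ W, u = 0)]
  | insert j s hj ih =>
    intro h1 h2
    have h3 : W.map (z - μ j • 1) ≤ W := by
      rintro _ ⟨u, hu, rfl⟩; exact sub_mem (h1 u hu) (W.smul_mem _ hu)
    have h4 := ih (W.map (z - μ j • 1)) (by rintro _ ⟨u, hu, rfl⟩; exact ⟨z u, h1 u hu, by simp⟩) (by
      rintro _ ⟨u, hu, rfl⟩
      simpa [Finset.prod_insert hj, mul_comm (X - C (μ j)), Algebra.algebraMap_eq_smul_one] using h2 u hu)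
    rw [Finset.sum_insert hj, ← ((z - μ j • 1).domRestrict W).finrank_range_add_finrank_ker, LinearMap.range_domRestrict,
      LinearMap.ker_domRestrict, add_comm, eigenspace_def, ← Submodule.map_comap_subtype,
      Submodule.finrank_map_subtype_eq]
    exact add_le_add le_rfl (h4.trans (Finset.sum_le_sum fun i _ => Submodule.finrank_mono (inf_le_inf_right _ h3)))

omit [FiniteDimensional F V] in
theorem eig_pow {a b : G} {ζ c : F} (h : ρ a * ρ b = ζ • (ρ b * ρ a)) {u : V} (hu : ρ a u = c • u) (i : ℕ) :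
    ρ a (ρ (b ^ i) u) = (ζ ^ i * c) • ρ (b ^ i) u := by
  induction i with
  | zero => simpa using hu
  | succ i ih =>
    rw [pow_succ' b, map_mul, End.mul_apply, ← End.mul_apply, h, LinearMap.smul_apply, End.mul_apply, ih, map_smul, smul_smul,
      pow_succ', mul_assoc]

theorem eig_le {r : ℕ} {a b : G} {ζ c : F} (hζ : IsPrimitiveRoot ζ r) (h : ρ a * ρ b = ζ • (ρ b * ρ a)) (hc : c ≠ 0) :
    r * finrank F ((ρ a).eigenspace c) ≤ finrank F V := by
  simpa using sum_le (ρ := ρ) (ρ a) ⊤ (Finset.range r) (c := fun i => ζ ^ i * c) (fun i hi j hj e =>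
    hζ.pow_inj (by simpa using hi) (by simpa using hj) (mul_right_cancel₀ hc e)) (fun _ => (ρ a).eigenspace c) (b ^ ·)
    fun i _ u hu => ⟨trivial, mem_eigenspace_iff.2 (eig_pow h (mem_eigenspace_iff.1 hu) i)⟩

theorem eig_split {r : ℕ} (hr : 0 < r) {g z : G} {ζ : F} (c : F) (hζ : IsPrimitiveRoot ζ r) (hz : z ^ r = 1) (h : Commute z g) :
    finrank F ((ρ g).eigenspace c) ≤ ∑ j ∈ Finset.range r, finrank F ↥((ρ g).eigenspace c ⊓ (ρ z).eigenspace (ζ ^ j)) := by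
  refine le_sum (ρ z) _ _ _ (fun u hu => ?_) fun u _ => ?_
  · rw [mem_eigenspace_iff] at hu ⊢
    rw [← End.mul_apply, ← map_mul, ← h.eq, map_mul, End.mul_apply, hu, map_smul]
  · have := X_pow_sub_C_eq_prod hζ hr (one_pow r)
    simp only [mul_one] at this
    rw [← this, map_sub, map_pow, aeval_X, ← map_pow, hz]; simp

/-- The case of an element of order `r`. -/
theorem eig_two {r : ℕ} (hr : r.Prime) (h2 : r ≠ 2) {g a z b : G} {ζ η c : F} (hc : c ≠ 0) (hζ : IsPrimitiveRoot ζ r)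
    (hb : ρ z * ρ b = ζ • (ρ b * ρ z)) (hz : z ^ r = 1) (h : Commute z g) (ha : g * a = a * z * g)
    (hη : ρ a * ρ z = η • (ρ z * ρ a)) (hη' : η ^ r = 1) : r * finrank F ((ρ g).eigenspace c) ≤ 2 * finrank F V := by
  have := Fact.mk hr
  have h0 := hζ.ne_zero hr.ne_zero
  have hs : ∀ {γ μ : F} {u : V}, ρ g u = γ • u → ρ z u = (η * μ) • u →
      ρ g (ρ a u) = (γ * (η * μ)) • ρ a u ∧ ρ z (ρ a u) = μ • ρ a u := fun {γ μ u} h1 h2 => by
    refine ⟨by rw [← End.mul_apply, ← map_mul, ha, map_mul, map_mul, End.mul_apply, End.mul_apply, h1, map_smul, h2,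
      smul_smul, map_smul], smul_right_injective V (fun e : η = 0 => by simp [e, hr.ne_zero] at hη') ?_⟩
    have := LinearMap.congr_fun hη u
    simp only [End.mul_apply, h2, map_smul, LinearMap.smul_apply] at this
    simp only [← this, smul_smul]
  by_cases h1 : η = 1
  · subst h1
    have h3 : ∀ j ∈ (Finset.range r).erase 0,
        r * (r * finrank F ↥((ρ g).eigenspace c ⊓ (ρ z).eigenspace (ζ ^ j))) ≤ finrank F V := fun j hj => by
      obtain ⟨hj0, hj⟩ := Finset.mem_erase.1 hj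
      have hζ' := hζ.pow_of_coprime j (Nat.coprime_of_lt_prime hj0 (Finset.mem_range.1 hj) hr).symm
      refine (Nat.mul_le_mul_left r ?_).trans (eig_le hζ hb (pow_ne_zero j h0))
      simpa using sum_le (ρ := ρ) (ρ g) ((ρ z).eigenspace (ζ ^ j)) (Finset.range r) (c := fun i => c * (ζ ^ j) ^ i)
        (fun i hi j hj e => hζ'.pow_inj (by simpa using hi) (by simpa using hj) (mul_left_cancel₀ hc e))
        (fun _ => (ρ g).eigenspace c ⊓ (ρ z).eigenspace (ζ ^ j)) (a ^ ·) fun i _ u hu => by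
          simp only [Submodule.mem_inf, mem_eigenspace_iff] at hu ⊢
          clear * - hu hs
          induction i with
          | zero => simpa using hu.symm
          | succ i ih =>
            have := hs ih.2 (by rw [one_mul]; exact ih.1)
            rw [pow_succ' a, map_mul, End.mul_apply, pow_succ, ← mul_assoc]
            simpa using this.symm
    have h4 := Finset.sum_le_card_nsmul _ _ _ h3
    have h5 := (Nat.mul_le_mul_left r (Submodule.finrank_mono (inf_le_right (a := (ρ g).eigenspace c)))).trans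
      (eig_le hζ hb (pow_ne_zero 0 h0))
    have h6 := eig_split (ρ := ρ) hr.pos c hζ hz h
    rw [← Finset.add_sum_erase _ _ (Finset.mem_range.2 hr.pos)] at h6
    rw [← Finset.mul_sum, ← Finset.mul_sum, Finset.card_erase_of_mem (Finset.mem_range.2 hr.pos), Finset.card_range,
      smul_eq_mul] at h4
    have h7 := Nat.mul_le_mul_right (finrank F V) (Nat.sub_le r 1)
    exact Nat.le_of_mul_le_mul_left (by nlinarith [Nat.mul_le_mul_left r h5, Nat.mul_le_mul_left (r * r) h6]) hr.pos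
  · have hξ : IsPrimitiveRoot η r := by rw [← orderOf_eq_prime hη' h1]; exact IsPrimitiveRoot.orderOf η
    have h3 : ∀ (j : ℕ) (γ : F) (u : V), ρ g u = γ • u → ρ z u = η ^ j • u →
        ρ z (ρ (a ^ j) u) = (1 : F) • ρ (a ^ j) u ∧ ρ g (ρ (a ^ j) u) = (γ * η ^ (j + 1).choose 2) • ρ (a ^ j) u := fun j => by
      induction j with
      | zero => intro γ u e1 e2; simpa [e1] using e2
      | succ j ih =>
        intro γ u e1 e2
        have := hs e1 (by rw [← pow_succ']; exact e2)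
        rw [pow_succ a, map_mul, End.mul_apply, Nat.choose_succ_succ' (j + 1), Nat.choose_one_right, pow_add, ← mul_assoc,
          pow_succ']
        exact ih _ _ this.1 this.2
    have h4 : ∀ s : Finset ℕ, (∀ i ∈ s, ∀ j ∈ s, i < j → j < r ∧ i + j + 1 ≠ r ∧ i + j + 1 < 2 * r) →
        r * ∑ j ∈ s, finrank F ↥((ρ g).eigenspace c ⊓ (ρ z).eigenspace (η ^ j)) ≤ finrank F V := fun s hs => by
      refine (Nat.mul_le_mul_left r (sum_le (ρ := ρ) (ρ g) _ s (c := fun j => c * η ^ (j + 1).choose 2) (fun i hi j hj e => ?_)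
        _ (a ^ ·) fun j _ u hu => ?_)).trans (eig_le hζ hb one_ne_zero)
      · wlog hij : i < j generalizing i j
        · exact (not_lt.1 hij).eq_or_lt.elim Eq.symm fun h => (this j hj i hi e.symm h).symm
        obtain ⟨e1, e2, e3⟩ := hs i hi j hj hij
        obtain ⟨k, rfl⟩ := Nat.exists_eq_add_of_lt hij
        have e4 := ((hξ.isOfFinOrder hr.ne_zero).pow_eq_pow_iff_modEq.1 (mul_left_cancel₀ hc e)).mul_right 2
        rw [← hξ.eq_orderOf, Nat.choose_two_right, Nat.choose_two_right, Nat.div_mul_cancel (Nat.even_mul_pred_self _).two_dvd,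
          Nat.div_mul_cancel (Nat.even_mul_pred_self _).two_dvd, Nat.add_sub_cancel, Nat.add_sub_cancel,
          show (i + k + 1 + 1) * (i + k + 1) = (i + 1) * i + (k + 1) * (i + (i + k + 1) + 1) by ring] at e4
        rcases (hr.dvd_mul).1 ((Nat.modEq_zero_iff_dvd).1 (Nat.ModEq.add_left_cancel' _ (e4.symm.trans (by rfl)))) with
          h5 | ⟨m, h5⟩
        · exact absurd (Nat.le_of_dvd k.succ_pos h5) (by omega)
        · rcases m with _ | _ | m <;> [omega; omega; nlinarith]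
      · simp only [Submodule.mem_inf, mem_eigenspace_iff] at hu ⊢
        exact h3 j c u hu.1 hu.2
    have h6 := eig_split (ρ := ρ) hr.pos c hξ hz h
    obtain ⟨m, rfl⟩ := hr.odd_of_ne_two h2
    rw [← Finset.sum_range_add_sum_Ico _ (show m + 1 ≤ 2 * m + 1 by have := hr.two_le; omega)] at h6
    have := h4 (Finset.range (m + 1)) (by simp only [Finset.mem_range]; omega)
    have := h4 (Finset.Ico (m + 1) (2 * m + 1)) (by simp only [Finset.mem_Ico]; omega)
    nlinarith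

theorem exists_comm [Finite G] {r : ℕ} (hr : r.Prime) {P R : Subgroup G} (hR : IsPGroup r R) (hRP : R ≤ P)
    (hP : ∀ a ∈ P, ∃ b ∈ R, b⁻¹ * a ∈ Subgroup.center G) {g : G} (hg : ∀ a, a ∈ P ↔ g * a * g⁻¹ ∈ P) (hgr : g ^ r = 1)
    {x : G} (hx : x ∈ P) (hx' : x * g * x⁻¹ ≠ g) : ∃ a ∈ P, a * g * a⁻¹ ≠ g ∧ g * (a * g * a⁻¹) * g⁻¹ = a * g * a⁻¹ := by
  classical
  have := Fact.mk hr
  have := Fintype.ofFinite G
  have h1 : ∀ h, (∃ a ∈ P, a * g * a⁻¹ = h) ↔ h ∈ MulAction.orbit (R.map (MulAut.conj : G →* MulAut G)) g := fun h => by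
    refine ⟨?_, fun ⟨⟨_, b, hb, rfl⟩, e⟩ => ⟨b, hRP hb, e⟩⟩
    rintro ⟨a, ha, rfl⟩
    obtain ⟨b, hb, hz⟩ := hP a ha
    refine ⟨⟨_, b, hb, rfl⟩, show b * g * b⁻¹ = _ from ?_⟩
    rw [← mul_inv_cancel_left b a, mul_assoc b (b⁻¹ * a), ← Subgroup.mem_center_iff.1 hz]; group
  obtain ⟨k, hk⟩ := (hR.map (MulAut.conj : G →* MulAut G)).card_orbit g
  rw [← Nat.card_congr (Equiv.subtypeEquivRight h1)] at hk
  have h2 : ∀ h, (∃ a ∈ P, a * g * a⁻¹ = (MulAut.conj g).toEquiv h) ↔ ∃ a ∈ P, a * g * a⁻¹ = h := fun h =>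
    ⟨fun ⟨a, ha, e⟩ => ⟨g⁻¹ * a * g, (hg _).2 (by simpa [mul_assoc]), (MulAut.conj g).injective
      (.trans (by simp [mul_assoc]) e)⟩, fun ⟨a, ha, e⟩ => ⟨_, (hg a).1 ha, by simp [← e, mul_assoc]⟩⟩
  obtain ⟨⟨_, a, ha, rfl⟩, e1, e2⟩ := Equiv.Perm.exists_fixed_point_of_prime' (p := r) (n := 1)
    (α := {h // ∃ a ∈ P, a * g * a⁻¹ = h}) (σ := Equiv.Perm.subtypePerm (MulAut.conj g).toEquiv h2) (a := ⟨g, 1, one_mem _, by simp⟩) (by
      rw [← Nat.card_eq_fintype_card, hk]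
      refine dvd_pow_self r fun h => hx' ?_
      rw [h, pow_zero, Nat.card_eq_one_iff_unique] at hk
      exact congrArg Subtype.val (hk.1.elim ⟨_, x, hx, rfl⟩ ⟨g, 1, one_mem _, by simp⟩)) (by
      ext h
      rw [pow_one, Equiv.Perm.subtypePerm_pow, Equiv.Perm.subtypePerm_apply]
      exact (show _ = (MulAut.toPerm G (MulAut.conj g) ^ r) h.1 from rfl).trans (by
        rw [← map_pow, ← map_pow, hgr, map_one, map_one]; rfl)) (Subtype.ext (by simp))
  exact ⟨a, ha, fun h => e2 (Subtype.ext h), congrArg Subtype.val e1⟩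

theorem main [Finite G] {r q : ℕ} (hr : r.Prime) (hq : q.Prime) (hi : Function.Injective ρ) {P R : Subgroup G}
    (hR : IsPGroup r R) (hRP : R ≤ P) (hP : ∀ a ∈ P, ∃ b ∈ R, b⁻¹ * a ∈ Subgroup.center G)
    (hcom : ∀ a ∈ P, ∀ b ∈ P, ∃ ζ : F, ζ ^ r = 1 ∧ ρ ⁅a, b⁆ = ζ • 1)
    (hcent : ∀ h : G, (∀ a ∈ P, Commute h a) → ∃ c : F, ρ h = c • 1) {g : G} (hg : ∀ a, a ∈ P ↔ g * a * g⁻¹ ∈ P)
    (hgq : g ^ q = 1) (hns : ∀ c : F, ρ g ≠ c • 1) (c : F) (h : finrank F V < 2 * finrank F ((ρ g).eigenspace c)) :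
    4 * finrank F ((ρ g).eigenspace c) ≤ 3 * finrank F V ∧
      (q ≠ 2 → q ∣ finrank F V ∧ q * finrank F ((ρ g).eigenspace c) ≤ 2 * finrank F V) := by
  have := Fact.mk hr
  have hev : ∀ {k : G} {d : F} {u : V}, u ≠ 0 → ρ k u = d • u → d ≠ 0 := fun hu e hd =>
    hu (inj _ (by rw [e, hd, zero_smul, map_zero]))
  have hfix : ∀ {k y : G} {d : F} {u : V}, u ≠ 0 → ρ k u = d • u → ρ y u = u → ρ (k * y * k⁻¹) u = u :=
    fun {k y d u} hu e1 e2 => smul_right_injective V (hev hu e1) (by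
      simp only [← map_smul, ← e1, ← End.mul_apply, ← map_mul, inv_mul_cancel_right]
      rw [map_mul, End.mul_apply, e2])
  have hsc : ∀ {a : G} {d : F} {u : V}, u ≠ 0 → ρ a u = u → ρ a = d • 1 → a = 1 := fun {a d u} hu e1 e2 => hi (by
    have : d = 1 := smul_left_injective F hu (by simpa [e2] using e1)
    rw [e2, this, one_smul, map_one])
  have hc2 : ∀ a ∈ P, ∀ b ∈ P, ∃ ζ : F, ζ ^ r = 1 ∧ ρ a * ρ b = ζ • (ρ b * ρ a) := fun a ha b hb => by
    obtain ⟨ζ, e1, e2⟩ := hcom a ha b hb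
    exact ⟨ζ, e1, by rw [← one_mul (ρ b * ρ a), ← smul_mul_assoc, ← e2, ← map_mul, ← map_mul, ← map_mul]; congr 1; group⟩
  have hz : ∀ a ∈ P, ∀ b ∈ P, ∀ k, k * ⁅a, b⁆ * k⁻¹ = ⁅a, b⁆ ∧ ⁅a, b⁆ ^ r = 1 := fun a ha b hb k => by
    obtain ⟨ζ, e1, e2⟩ := hcom a ha b hb
    exact ⟨hi (by rw [map_mul, map_mul, e2, mul_smul_comm, smul_mul_assoc, mul_one, ← map_mul, mul_inv_cancel, map_one]),
      hi (by simp [e2, _root_.smul_pow, e1])⟩
  have hl : ∀ a ∈ P, ∀ b ∈ P, ∀ d ∈ P, ⁅a * b, d⁆ = ⁅b, d⁆ * ⁅a, d⁆ ∧ ⁅d, a * b⁆ = ⁅d, a⁆ * ⁅d, b⁆ := fun a ha b hb d hd =>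
    ⟨by rw [← (hz b hb d hd a).1]; group, by rw [← (hz d hd b hb a).1]; group⟩
  have hφ : ∀ a ∈ P, ∀ b ∈ P, ⁅g * a * g⁻¹, g * b * g⁻¹⁆ = ⁅a, b⁆ := fun a ha b hb => by
    rw [← (hz a ha b hb g).1]; group
  have hpow : ∀ a ∈ P, ∀ b ∈ P, ∀ i : ℕ, ⁅a ^ i, b⁆ = ⁅a, b⁆ ^ i := fun a ha b hb i => by
    induction i with
    | zero => simp
    | succ i ih => rw [pow_succ', (hl a ha _ (pow_mem ha i) b hb).1, ih, pow_succ]
  have hprim : ∀ a ∈ P, a ≠ 1 → ∀ u ≠ 0, ρ a u = u →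
      a ^ r = 1 ∧ ∃ b ζ, IsPrimitiveRoot ζ r ∧ ρ a * ρ b = ζ • (ρ b * ρ a) := fun a ha h1 u hu e => by
    obtain ⟨d, hd⟩ := hcent (a ^ r) fun b hb => commutatorElement_eq_one_iff_commute.1 (by
      rw [hpow a ha b hb, (hz a ha b hb 1).2])
    refine ⟨hsc hu (by rw [map_pow, End.pow_apply, Function.iterate_fixed e]) hd, by_contra fun h2 => ?_⟩
    obtain ⟨d, hd⟩ := hcent a fun b hb => by
      obtain ⟨ζ, e1, e2⟩ := hc2 a ha b hb
      by_cases h3 : ζ = 1
      · exact hi (by rw [map_mul, map_mul, e2, h3, one_smul])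
      · exact absurd ⟨b, ζ, by rw [← orderOf_eq_prime e1 h3]; exact IsPrimitiveRoot.orderOf ζ, e2⟩ h2
    exact h1 (hsc hu e hd)
  have hy : ∀ x ∈ P, x⁻¹ * g * x * g⁻¹ ∈ P := fun x hx => by
    simpa [mul_assoc] using mul_mem (inv_mem hx) ((hg x).1 hx)
  have hD : ∀ x : G, ∃ D : Submodule F V, 2 * finrank F ((ρ g).eigenspace c) ≤ finrank F V + finrank F D ∧
      (∀ u ∈ D, u ≠ 0 → ρ g u = c • u ∧ ρ (x⁻¹ * g * x * g⁻¹) u = u) := fun x => by
    refine ⟨(ρ g).eigenspace c ⊓ ((ρ g).eigenspace c).map (ρ x⁻¹), ?_, ?_⟩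
    · have := Submodule.finrank_sup_add_finrank_inf_eq ((ρ g).eigenspace c) (((ρ g).eigenspace c).map (ρ x⁻¹))
      rw [← (((ρ g).eigenspace c).equivMapOfInjective _ (inj x⁻¹)).finrank_eq] at this
      have := Submodule.finrank_le ((ρ g).eigenspace c ⊔ ((ρ g).eigenspace c).map (ρ x⁻¹))
      omega
    · rintro _ ⟨h1, v, hv, rfl⟩ hu
      have h2 := mem_eigenspace_iff.1 h1
      refine ⟨h2, smul_right_injective V (hev hu h2) ?_⟩
      beta_reduce
      rw [← map_smul, ← h2, ← End.mul_apply, ← map_mul, inv_mul_cancel_right, ← End.mul_apply, ← map_mul,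
        mul_inv_cancel_right, map_mul, End.mul_apply, h2, mem_eigenspace_iff.1 hv, map_smul]
  have hu : ∀ x : G, ∃ u ≠ 0, ρ g u = c • u ∧ ρ (x⁻¹ * g * x * g⁻¹) u = u := fun x => by
    obtain ⟨D, h1, h2⟩ := hD x
    obtain ⟨u, hu, h3⟩ := D.exists_mem_ne_zero_of_ne_bot (by rintro rfl; rw [finrank_bot] at h1; omega)
    exact ⟨u, h3, h2 u hu h3⟩
  obtain ⟨x, hx, hx'⟩ : ∃ x ∈ P, ¬ Commute g x := by
    by_contra! h1
    exact (hcent g h1).elim hns
  have hx1 : x⁻¹ * g * x * g⁻¹ ≠ 1 := fun e => hx' (by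
    rw [mul_assoc, mul_assoc, inv_mul_eq_one, ← mul_assoc, eq_mul_inv_iff_mul_eq] at e; exact e.symm)
  obtain ⟨u, hu0, hu1, hu2⟩ := hu x
  obtain ⟨-, b, ζ, hζ, hb⟩ := hprim _ (hy x hx) hx1 u hu0 hu2
  refine ⟨?_, fun h2 => ?_⟩
  · obtain ⟨D, h1, h2⟩ := hD x
    have h3 := (Nat.mul_le_mul hr.two_le (Submodule.finrank_mono (show D ≤ _ from fun v hv => mem_eigenspace_iff.2 (by
      rcases eq_or_ne v 0 with rfl | h4
      exacts [by simp, (h2 v hv h4).2.trans (one_smul F v).symm])))).trans (eig_le hζ hb one_ne_zero)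
    omega
  have hqr : q = r := by
    by_contra h3
    have h4 : ∀ x ∈ P, ⁅x, g * x * g⁻¹⁆ = 1 := fun x hx => by
      obtain ⟨u, hu0, hu1, hu2⟩ := hu x
      have hy' := hy x hx
      have e0 : g * x * g⁻¹ = x * (x⁻¹ * g * x * g⁻¹) := by group
      generalize x⁻¹ * g * x * g⁻¹ = y at *
      have hf : ∀ (i : ℕ), ∀ a ∈ P, g ^ i * a * (g ^ i)⁻¹ ∈ P := fun i a ha => by
        induction i with
        | zero => simpa
        | succ i ih => simpa [pow_succ', mul_assoc] using (hg _).1 ih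
      have e1 : ∀ i : ℕ, ⁅y, g ^ i * y * (g ^ i)⁻¹⁆ = 1 := fun i => by
        have e2 := hfix hu0 (d := c ^ i) (k := g ^ i) (by
          rw [map_pow]; exact (hasEigenvector_iff.2 ⟨mem_eigenspace_iff.2 hu1, hu0⟩).pow_apply i) hu2
        obtain ⟨d, -, hd⟩ := hcom _ hy' _ (hf i y hy')
        refine hsc hu0 ?_ hd
        have e3 : ∀ {a : G}, ρ a u = u → ρ a⁻¹ u = u := fun e => by
          rw [← e, Representation.inv_self_apply, e]
        generalize g ^ i * y * (g ^ i)⁻¹ = t at e2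
        simp only [commutatorElement_def, map_mul, End.mul_apply, e3 e2, e3 hu2, e2, hu2]
      have e2 : ∀ i : ℕ, ⁅x, g ^ i * y * (g ^ i)⁻¹⁆ = ⁅x, y⁆ := fun i => by
        induction i with
        | zero => simp
        | succ i ih =>
          rw [← ih, ← hφ x hx _ (hf i y hy'), e0, show g * (g ^ i * y * (g ^ i)⁻¹) * g⁻¹ = g ^ (i + 1) * y * (g ^ (i + 1))⁻¹ by
            group, (hl x hx y hy' _ (hf _ y hy')).1, e1, one_mul]
      have e3 : ∀ i : ℕ, ⁅x, g ^ i * x * (g ^ i)⁻¹⁆ = ⁅x, y⁆ ^ i := fun i => by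
        induction i with
        | zero => simp
        | succ i ih =>
          rw [show g ^ (i + 1) * x * (g ^ (i + 1))⁻¹ = g ^ i * (g * x * g⁻¹) * (g ^ i)⁻¹ by group, e0,
            show g ^ i * (x * y) * (g ^ i)⁻¹ = g ^ i * x * (g ^ i)⁻¹ * (g ^ i * y * (g ^ i)⁻¹) by group,
            (hl _ (hf i x hx) _ (hf i y hy') x hx).2, ih, e2, pow_succ]
      have e4 := pow_gcd_eq_one.2 ⟨(e3 q).symm.trans (by simp [hgq]), (hz x hx y hy' 1).2⟩
      rw [(Nat.coprime_primes hq hr).2 h3, pow_one] at e4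
      simpa [e4] using e3 1
    obtain ⟨m, rfl⟩ := hq.odd_of_ne_two h2
    have h5 : x⁻¹ * g * x * g⁻¹ * (g * (x⁻¹ * g * x * g⁻¹) * g⁻¹) = 1 := by
      obtain ⟨d, hd⟩ := hcent (x⁻¹ * g * x * g⁻¹ * (g * (x⁻¹ * g * x * g⁻¹) * g⁻¹)) fun a ha => by
        have ha' : g⁻¹ * a * g ∈ P := (hg _).2 (by simpa [mul_assoc])
        have gx := (hg x).1 hx
        have e1 := h4 _ (mul_mem hx ha')
        have e2 := h4 _ ha'
        have e3 := hφ _ ha' _ gx
        have e4 := (hl x hx _ (mul_mem (hy x hx) ((hg _).1 (hy x hx))) a ha).1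
        rw [show g * (x * (g⁻¹ * a * g)) * g⁻¹ = g * x * g⁻¹ * a by group, (hl x hx _ ha' _ (mul_mem gx ha)).1,
          (hl _ gx a ha _ ha').2, (hl _ gx a ha x hx).2, h4 x hx, ← e3] at e1
        rw [show g * (g⁻¹ * a * g) * g⁻¹ = a by group] at e1 e2
        rw [e2, mul_one, one_mul, ← commutatorElement_inv, inv_mul_eq_one] at e1
        rw [show x * (x⁻¹ * g * x * g⁻¹ * (g * (x⁻¹ * g * x * g⁻¹) * g⁻¹)) = g * (g * x * g⁻¹) * g⁻¹ by group, e1,
          right_eq_mul] at e4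
        exact commutatorElement_eq_one_iff_commute.1 e4
      exact hsc hu0 (by rw [map_mul, End.mul_apply, hfix hu0 hu1 hu2, hu2]) hd
    have h6 : Commute (g ^ 2) x := mul_inv_eq_iff_eq_mul.1 (((show _ = x * _ by rw [sq]; group).trans
      (congrArg (x * ·) h5)).trans (mul_one x))
    exact hx' (by simpa [← pow_mul, mul_add, pow_succ g (2 * m + 1), hgq] using h6.pow_left (m + 1))
  subst hqr
  refine ⟨?_, ?_⟩
  · have := congrArg LinearMap.det hb
    rw [LinearMap.det_smul, map_mul, map_mul LinearMap.det, mul_comm, eq_comm, mul_eq_right₀ (mul_ne_zero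
      (((Group.isUnit _).map ρ).map _).ne_zero (((Group.isUnit _).map ρ).map _).ne_zero)] at this
    exact hζ.dvd_of_pow_eq_one _ this
  · obtain ⟨a, ha, e1, e2⟩ := exists_comm hr hR hRP hP hg hgq (inv_mem hx) fun e => hx1 (by simpa [mul_inv_eq_one] using e)
    obtain ⟨u, hu0, hu1, hu2⟩ := hu a⁻¹
    obtain ⟨h3, b, ζ, hζ, hb⟩ := hprim _ (hy _ (inv_mem ha)) (fun e => e1 (by simpa [mul_inv_eq_one] using e)) u hu0 hu2
    obtain ⟨η, e3, e4⟩ := hc2 _ (inv_mem ha) _ (hy _ (inv_mem ha))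
    refine eig_two hr h2 (hev hu0 hu1) hζ hb h3 ?_ (by group) e4 e3
    rw [Commute, SemiconjBy, inv_inv, inv_mul_cancel_right, ← mul_assoc, e2]

end CfsgLib.ExtEig
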